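/-
Basic elements and automorphisms of `PSL₂(F)`.
-/
import Mathlib

set_option autoImplicit false

namespace CfsgLib.PSA

open Matrix

variable {F : Type*} [Field F]

/-- The special linear group in dimension two. -/
abbrev SLt (F : Type*) [Field F] := Matrix.SpecialLinearGroup (Fin 2) F

/-- The projective group. -/
abbrev PS (F : Type*) [Field F] := Matrix.ProjectiveSpecialLinearGroup (Fin 2) F

/-- The quotient map. -/
def pr : SLt F →* PS F := QuotientGroup.mk' _

lemma pr_surj : Function.Surjective (pr : SLt F → PS F) := QuotientGroup.mk_surjective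

/-- Making an element from its entries. -/
def mkSL (a b c d : F) (h : a * d - b * c = 1) : SLt F := ⟨!![a, b; c, d], by rw [Matrix.det_fin_two_of]; exact h⟩

lemma mkSL_val (a b c d : F) (h : a * d - b * c = 1) : (mkSL a b c d h).1 = !![a, b; c, d] := rfl

/-- The shape of a matrix. -/
lemma val_eta (A : SLt F) : A.1 = !![A.1 0 0, A.1 0 1; A.1 1 0, A.1 1 1] := Matrix.eta_fin_two A.1

lemma det_eq (A : SLt F) : A.1 0 0 * A.1 1 1 - A.1 0 1 * A.1 1 0 = 1 := by
  have := A.2
  rwa [Matrix.det_fin_two] at this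

lemma ext4 {A B : SLt F} (h0 : A.1 0 0 = B.1 0 0) (h1 : A.1 0 1 = B.1 0 1) (h2 : A.1 1 0 = B.1 1 0) (h3 : A.1 1 1 = B.1 1 1) : A = B := by
  apply Subtype.ext
  rw [val_eta A, val_eta B, h0, h1, h2, h3]

lemma mul_00 (A B : SLt F) : (A * B).1 0 0 = A.1 0 0 * B.1 0 0 + A.1 0 1 * B.1 1 0 := by
  show (A.1 * B.1) 0 0 = _
  rw [Matrix.mul_apply, Fin.sum_univ_two]
lemma mul_01 (A B : SLt F) : (A * B).1 0 1 = A.1 0 0 * B.1 0 1 + A.1 0 1 * B.1 1 1 := by
  show (A.1 * B.1) 0 1 = _
  rw [Matrix.mul_apply, Fin.sum_univ_two]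
lemma mul_10 (A B : SLt F) : (A * B).1 1 0 = A.1 1 0 * B.1 0 0 + A.1 1 1 * B.1 1 0 := by
  show (A.1 * B.1) 1 0 = _
  rw [Matrix.mul_apply, Fin.sum_univ_two]
lemma mul_11 (A B : SLt F) : (A * B).1 1 1 = A.1 1 0 * B.1 0 1 + A.1 1 1 * B.1 1 1 := by
  show (A.1 * B.1) 1 1 = _
  rw [Matrix.mul_apply, Fin.sum_univ_two]

@[simp] lemma mk_00 (a b c d : F) (h : a * d - b * c = 1) : (mkSL a b c d h).1 0 0 = a := rfl
@[simp] lemma mk_01 (a b c d : F) (h : a * d - b * c = 1) : (mkSL a b c d h).1 0 1 = b := rfl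
@[simp] lemma mk_10 (a b c d : F) (h : a * d - b * c = 1) : (mkSL a b c d h).1 1 0 = c := rfl
@[simp] lemma mk_11 (a b c d : F) (h : a * d - b * c = 1) : (mkSL a b c d h).1 1 1 = d := rfl

@[simp] lemma one_00 : (1 : SLt F).1 0 0 = 1 := by simp
@[simp] lemma one_01 : (1 : SLt F).1 0 1 = 0 := by simp
@[simp] lemma one_10 : (1 : SLt F).1 1 0 = 0 := by simp
@[simp] lemma one_11 : (1 : SLt F).1 1 1 = 1 := by simp

/-- Equality in the projective group. -/
lemma pr_eq_iff {A B : SLt F} : pr A = pr B ↔ (A.1 = B.1 ∨ A.1 = - B.1) := by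
  constructor
  · intro h
    have h1 : A⁻¹ * B ∈ Subgroup.center (SLt F) := QuotientGroup.eq.1 h
    rw [Matrix.SpecialLinearGroup.mem_center_iff] at h1
    obtain ⟨r, hr, hs⟩ := h1
    simp only [Fintype.card_fin] at hr
    have hr2 : r = 1 ∨ r = -1 := by
      have h4 : (r - 1) * (r + 1) = 0 := by linear_combination hr
      rcases mul_eq_zero.1 h4 with h5 | h5
      · left
        linear_combination h5
      · right
        linear_combination h5
    have hB : B.1 = Matrix.scalar (Fin 2) r * A.1 := by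
      have h2 : B = A * (A⁻¹ * B) := by group
      have h3 : B.1 = A.1 * (A⁻¹ * B).1 := by
        conv_lhs => rw [h2]
        rfl
      rw [h3, ← hs]
      ext i j
      fin_cases i <;> fin_cases j <;> simp [Matrix.mul_apply, Fin.sum_univ_two, mul_comm]
    rcases hr2 with rfl | rfl
    · left
      rw [hB]
      simp
    · right
      rw [hB]
      ext i j
      fin_cases i <;> fin_cases j <;> simp [Matrix.mul_apply, Fin.sum_univ_two]
  · rintro (h | h)
    · rw [Subtype.ext h]
    · apply QuotientGroup.eq.2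
      rw [Matrix.SpecialLinearGroup.mem_center_iff]
      refine ⟨-1, by simp, ?_⟩
      have h3 : (A⁻¹ * B).1 = -1 := by
        have e1 : (A⁻¹ * B).1 = (A⁻¹).1 * B.1 := rfl
        have e2 : B.1 = - A.1 := by
          rw [h, neg_neg]
        have e3 : (A⁻¹).1 * A.1 = 1 := by
          have : (A⁻¹ * A).1 = 1 := by
            rw [inv_mul_cancel]
            rfl
          exact this
        rw [e1, e2, mul_neg, e3]
      rw [h3]
      ext i j
      fin_cases i <;> fin_cases j <;> simp

/-- The transvections. -/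
def uS (t : F) : SLt F := mkSL 1 t 0 1 (by ring)
def lS (t : F) : SLt F := mkSL 1 0 t 1 (by ring)
/-- The torus. -/
def hS (a : Fˣ) : SLt F := mkSL (a : F) 0 0 ((a⁻¹ : Fˣ) : F) (by simp)
/-- The Weyl element. -/
def wS : SLt F := mkSL 0 1 (-1) 0 (by ring)

/-- Images in the projective group. -/
def u (t : F) : PS F := pr (uS t)
def l (t : F) : PS F := pr (lS t)
def h (a : Fˣ) : PS F := pr (hS a)
def w : PS F := pr (wS (F := F))

lemma uS_add (s t : F) : uS s * uS t = uS (s + t) := by
  apply ext4 <;> simp [uS, mul_00, mul_01, mul_10, mul_11]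
  ring

lemma lS_add (s t : F) : lS s * lS t = lS (s + t) := by
  apply ext4 <;> simp [lS, mul_00, mul_01, mul_10, mul_11]

lemma u_add (s t : F) : u s * u t = u (s + t) := by
  rw [u, u, u, ← map_mul, uS_add]

lemma l_add (s t : F) : l s * l t = l (s + t) := by
  rw [l, l, l, ← map_mul, lS_add]

lemma uS_zero : uS (0 : F) = 1 := by
  apply ext4 <;> simp [uS]

lemma lS_zero : lS (0 : F) = 1 := by
  apply ext4 <;> simp [lS]

lemma u_zero : u (0 : F) = 1 := by
  rw [u, uS_zero, map_one]

lemma l_zero : l (0 : F) = 1 := by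
  rw [l, lS_zero, map_one]

lemma u_neg (t : F) : (u t)⁻¹ = u (-t) := by
  apply inv_eq_of_mul_eq_one_right
  rw [u_add, add_neg_cancel, u_zero]

lemma l_neg (t : F) : (l t)⁻¹ = l (-t) := by
  apply inv_eq_of_mul_eq_one_right
  rw [l_add, add_neg_cancel, l_zero]

/-- Injectivity of the transvections. -/
lemma u_inj {s t : F} (h : u s = u t) : s = t := by
  rcases pr_eq_iff.1 h with h1 | h1
  · have := congrFun (congrFun h1 0) 1
    simpa [uS, mkSL] using this
  · have h2 := congrFun (congrFun h1 0) 0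
    have h3 := congrFun (congrFun h1 0) 1
    have h4 : (2 : F) = 0 := by
      have : (1 : F) = -1 := by simpa [uS, mkSL] using h2
      linear_combination this
    have h5 : s = - t := by simpa [uS, mkSL] using h3
    rw [h5]
    linear_combination (-t) * h4

lemma u_eq_one {t : F} (h : u t = 1) : t = 0 := by
  apply u_inj
  rw [h, u_zero]

lemma hS_mul (a b : Fˣ) : hS a * hS b = hS (a * b) := by
  apply ext4 <;> simp [hS, mul_00, mul_01, mul_10, mul_11]
  ring

lemma hS_one : hS (1 : Fˣ) = 1 := by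
  apply ext4 <;> simp [hS]

/-- The torus homomorphism. -/
def hH : Fˣ →* PS F where
  toFun a := h a
  map_one' := by
    show pr (hS 1) = 1
    rw [hS_one, map_one]
  map_mul' a b := by
    show pr (hS (a * b)) = pr (hS a) * pr (hS b)
    rw [← map_mul, hS_mul]

@[simp] lemma hH_apply (a : Fˣ) : hH a = h a := rfl

lemma h_mul (a b : Fˣ) : h a * h b = h (a * b) := (map_mul hH a b).symm

lemma h_neg (a : Fˣ) : h (-a) = h a := by
  apply pr_eq_iff.2
  right
  ext i j
  fin_cases i <;> fin_cases j <;> simp [hS, mkSL]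

lemma h_inv (a : Fˣ) : (h a)⁻¹ = h a⁻¹ := (map_inv hH a).symm

/-- The action of the torus on the transvections. -/
lemma h_u (a : Fˣ) (t : F) : h a * u t * (h a)⁻¹ = u ((a : F) ^ 2 * t) := by
  have e : hS a * uS t = uS ((a : F) ^ 2 * t) * hS a := by
    apply ext4 <;> simp [hS, uS, mul_00, mul_01, mul_10, mul_11]
    field_simp
  rw [mul_inv_eq_iff_eq_mul]
  rw [h, u, u, ← map_mul, ← map_mul, e]

/-- The action of the torus on the lower transvections. -/
lemma h_l (a : Fˣ) (t : F) : h a * l t * (h a)⁻¹ = l (((a : F) ^ 2)⁻¹ * t) := by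
  have e : hS a * lS t = lS (((a : F) ^ 2)⁻¹ * t) * hS a := by
    apply ext4 <;> simp [hS, lS, mul_00, mul_01, mul_10, mul_11]
    field_simp
  rw [mul_inv_eq_iff_eq_mul]
  rw [h, l, l, ← map_mul, ← map_mul, e]

lemma h_eq_one_of_sq {a : Fˣ} (ha : (a : F) ^ 2 = 1) : h a = 1 := by
  have h4 : ((a : F) - 1) * ((a : F) + 1) = 0 := by linear_combination ha
  rcases mul_eq_zero.1 h4 with h5 | h5
  · have : a = 1 := Units.ext (by simpa using (sub_eq_zero.1 h5))
    rw [this]
    exact map_one hH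
  · have : a = -1 := Units.ext (by simpa using (eq_neg_of_add_eq_zero_left h5))
    rw [this, h_neg]
    exact map_one hH

lemma sq_of_h_eq {a b : Fˣ} (hab : h a = h b) : (a : F) ^ 2 = (b : F) ^ 2 := by
  have h1 := h_u a 1
  rw [hab, h_u] at h1
  have := u_inj h1
  simpa using this.symm

/-- Upper triangular elements. -/
lemma upper_eq {A : SLt F} (hA : A.1 1 0 = 0) : ∃ (a : Fˣ) (t : F), A = uS t * hS a ∧ (a : F) = A.1 0 0 := by
  have hd := det_eq A
  rw [hA, mul_zero, sub_zero] at hd
  have ha : A.1 0 0 ≠ 0 := left_ne_zero_of_mul_eq_one hd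
  refine ⟨Units.mk0 (A.1 0 0) ha, A.1 0 1 * A.1 0 0, ?_, rfl⟩
  have hd1 : A.1 1 1 = (A.1 0 0)⁻¹ := eq_inv_of_mul_eq_one_right hd
  apply ext4 <;> simp [uS, hS, mul_00, mul_01, mul_10, mul_11, hA, hd1, ha]

/-- Lifting the relation of Bruhat. -/
lemma w_rel : w = u (1 : F) * l (-1) * u 1 := by
  rw [w, u, l, ← map_mul, ← map_mul]
  congr 1
  apply ext4 <;> simp [uS, lS, wS, mul_00, mul_01, mul_10, mul_11]

lemma l_eq_w (t : F) : l t = w * u (-t) * w⁻¹ := by
  rw [eq_comm, mul_inv_eq_iff_eq_mul]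
  rw [w, u, l, ← map_mul, ← map_mul]
  congr 1
  apply ext4 <;> simp [uS, lS, wS, mul_00, mul_01, mul_10, mul_11]

/-- Generation by the transvections. -/
lemma gen_SL (A : SLt F) (hc : A.1 1 0 ≠ 0) : A = uS ((A.1 0 0 - 1) / A.1 1 0) * lS (A.1 1 0) * uS ((A.1 1 1 - 1) / A.1 1 0) := by
  have hd := det_eq A
  apply ext4 <;> simp [uS, lS, mul_00, mul_01, mul_10, mul_11]
  · field_simp
    ring
  · field_simp
    linear_combination -hd
  · field_simp
    ring

/-- Every element of the projective group is a word in the transvections. -/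
lemma eq_of_fix_ul {χ : PS F →* PS F} (hu : ∀ t : F, χ (u t) = u t) (hl : ∀ t : F, χ (l t) = l t) (g : PS F) : χ g = g := by
  obtain ⟨A, rfl⟩ := pr_surj g
  by_cases hc : A.1 1 0 = 0
  · -- multiply by a lower transvection
    set B := lS (1 : F) * A with hB
    have hB10 : B.1 1 0 ≠ 0 := by
      have hd := det_eq A
      rw [hc, mul_zero, sub_zero] at hd
      simp only [hB, mul_10]
      simp [lS, hc]
      exact left_ne_zero_of_mul_eq_one hd
    have hAB : A = lS (-1 : F) * B := by
      rw [hB, ← mul_assoc, lS_add]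
      simp [lS_zero]
    have := gen_SL B hB10
    rw [hAB, this]
    simp only [map_mul]
    show χ (l _) * (χ (u _) * χ (l _) * χ (u _)) = l _ * (u _ * l _ * u _)
    rw [hu, hu, hl, hl]
  · have := gen_SL A hc
    rw [this]
    simp only [map_mul]
    show χ (u _) * χ (l _) * χ (u _) = u _ * l _ * u _
    rw [hu, hu, hl]

end CfsgLib.PSA
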