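/-
Diagonal and field automorphisms of `PSL₂(F)`, and the trace relation.
-/
import Cfsg.Agent.Lib.PSLAut.Basic

set_option autoImplicit false

namespace CfsgLib.PSA

open Matrix

variable {F : Type*} [Field F]

/-- The kernel of the projection. -/
lemma pr_eq_one_iff {A : SLt F} : pr A = 1 ↔ (A.1 = 1 ∨ A.1 = -1) := by
  have : pr A = 1 ↔ pr A = pr 1 := by rw [map_one]
  rw [this, pr_eq_iff]
  rfl

/-- Descent to the projective group. -/
noncomputable def desc (ψ : SLt F →* SLt F) (hψ : ∀ A : SLt F, (A.1 = 1 ∨ A.1 = -1) → pr (ψ A) = 1) : PS F →* PS F :=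
  QuotientGroup.lift _ (pr.comp ψ) (by
    intro A hA
    apply hψ
    apply pr_eq_one_iff.1
    exact (QuotientGroup.eq_one_iff A).2 hA)

lemma desc_pr (ψ : SLt F →* SLt F) (hψ : ∀ A : SLt F, (A.1 = 1 ∨ A.1 = -1) → pr (ψ A) = 1) (A : SLt F) : desc ψ hψ (pr A) = pr (ψ A) := rfl

/-- Conjugation by a diagonal matrix. -/
def dS (c : Fˣ) (A : SLt F) : SLt F :=
  mkSL (A.1 0 0) ((c : F) * A.1 0 1) (((c⁻¹ : Fˣ) : F) * A.1 1 0) (A.1 1 1) (by
    have h := det_eq A
    have hc : ((c⁻¹ : Fˣ) : F) * (c : F) = 1 := by simp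
    linear_combination h - (A.1 0 1 * A.1 1 0) * hc)

/-- The diagonal conjugation as a homomorphism. -/
def dHom (c : Fˣ) : SLt F →* SLt F where
  toFun := dS c
  map_one' := by
    apply ext4 <;> simp [dS]
  map_mul' A B := by
    have hc : ((c⁻¹ : Fˣ) : F) * (c : F) = 1 := by simp
    apply ext4 <;> simp only [dS, mk_00, mk_01, mk_10, mk_11, mul_00, mul_01, mul_10, mul_11]
    · linear_combination (- A.1 0 1 * B.1 1 0) * hc
    · ring
    · ring
    · linear_combination (- A.1 1 0 * B.1 0 1) * hc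

@[simp] lemma dHom_apply (c : Fˣ) (A : SLt F) : dHom c A = dS c A := rfl

lemma dS_dS (c c' : Fˣ) (A : SLt F) : dS c (dS c' A) = dS (c * c') A := by
  apply ext4 <;> simp [dS, mul_assoc, mul_comm, mul_left_comm]

lemma dS_one (A : SLt F) : dS 1 A = A := by
  apply ext4 <;> simp [dS]

lemma dHom_center (c : Fˣ) (A : SLt F) (hA : A.1 = 1 ∨ A.1 = -1) : pr (dHom c A) = 1 := by
  apply pr_eq_one_iff.2
  rw [dHom_apply]
  rcases hA with h | h
  · left
    ext i j
    fin_cases i <;> fin_cases j <;> simp [dS, h, mkSL]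
  · right
    ext i j
    fin_cases i <;> fin_cases j <;> simp [dS, h, mkSL]

/-- The diagonal automorphism. -/
noncomputable def dA (c : Fˣ) : MulAut (PS F) where
  toFun := desc (dHom c) (dHom_center c)
  invFun := desc (dHom c⁻¹) (dHom_center c⁻¹)
  left_inv x := by
    obtain ⟨A, rfl⟩ := pr_surj x
    rw [desc_pr, desc_pr, dHom_apply, dHom_apply, dS_dS, inv_mul_cancel, dS_one]
  right_inv x := by
    obtain ⟨A, rfl⟩ := pr_surj x
    rw [desc_pr, desc_pr, dHom_apply, dHom_apply, dS_dS, mul_inv_cancel, dS_one]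
  map_mul' a b := map_mul _ a b

lemma dA_pr (c : Fˣ) (A : SLt F) : dA c (pr A) = pr (dS c A) := rfl

lemma dA_u (c : Fˣ) (t : F) : dA c (u t) = u ((c : F) * t) := by
  show pr _ = pr _
  congr 1
  apply ext4 <;> simp [dS, uS]

lemma dA_l (c : Fˣ) (t : F) : dA c (l t) = l (((c⁻¹ : Fˣ) : F) * t) := by
  show pr _ = pr _
  congr 1
  apply ext4 <;> simp [dS, lS]

lemma dA_h (c b : Fˣ) : dA c (h b) = h b := by
  show pr _ = pr _
  congr 1
  apply ext4 <;> simp [dS, hS]

lemma dA_mul (c c' : Fˣ) : dA (c * c') = dA c * dA c' := by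
  ext x
  obtain ⟨A, rfl⟩ := pr_surj x
  show pr (dS (c * c') A) = pr (dS c (dS c' A))
  rw [dS_dS]

lemma dA_one : dA (1 : Fˣ) = 1 := by
  ext x
  obtain ⟨A, rfl⟩ := pr_surj x
  show pr (dS 1 A) = pr A
  rw [dS_one]

lemma mapS_apply (σ : F ≃+* F) (A : SLt F) (i j : Fin 2) :
    (Matrix.SpecialLinearGroup.map (σ : F →+* F) A).1 i j = σ (A.1 i j) := rfl

lemma fHom_center (σ : F ≃+* F) (A : SLt F) (hA : A.1 = 1 ∨ A.1 = -1) : pr (Matrix.SpecialLinearGroup.map (σ : F →+* F) A) = 1 := by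
  apply pr_eq_one_iff.2
  rcases hA with h | h
  · left
    ext i j
    rw [mapS_apply, h]
    fin_cases i <;> fin_cases j <;> simp
  · right
    ext i j
    rw [mapS_apply, h]
    fin_cases i <;> fin_cases j <;> simp

/-- The field automorphism. -/
noncomputable def fA (σ : F ≃+* F) : MulAut (PS F) where
  toFun := desc (Matrix.SpecialLinearGroup.map (σ : F →+* F)) (fHom_center σ)
  invFun := desc (Matrix.SpecialLinearGroup.map (σ.symm : F →+* F)) (fHom_center σ.symm)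
  left_inv x := by
    obtain ⟨A, rfl⟩ := pr_surj x
    rw [desc_pr, desc_pr]
    congr 1
    apply Subtype.ext
    ext i j
    simp [mapS_apply]
  right_inv x := by
    obtain ⟨A, rfl⟩ := pr_surj x
    rw [desc_pr, desc_pr]
    congr 1
    apply Subtype.ext
    ext i j
    simp [mapS_apply]
  map_mul' a b := map_mul _ a b

lemma fA_pr (σ : F ≃+* F) (A : SLt F) : fA σ (pr A) = pr (Matrix.SpecialLinearGroup.map (σ : F →+* F) A) := rfl

lemma fA_u (σ : F ≃+* F) (t : F) : fA σ (u t) = u (σ t) := by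
  rw [u, fA_pr, u]
  congr 1
  apply ext4 <;> simp [mapS_apply, uS]

lemma fA_l (σ : F ≃+* F) (t : F) : fA σ (l t) = l (σ t) := by
  rw [l, fA_pr, l]
  congr 1
  apply ext4 <;> simp [mapS_apply, lS]

lemma fA_h (σ : F ≃+* F) (b : Fˣ) : fA σ (h b) = h (Units.map (σ : F →* F) b) := by
  rw [h, fA_pr, h]
  congr 1
  apply ext4 <;> simp [mapS_apply, hS]

/-- The trace. -/
def trS (A : SLt F) : F := A.1 0 0 + A.1 1 1

/-- The trace relation of an automorphism and a field automorphism. -/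
def TR (φ : MulAut (PS F)) (σ : F ≃+* F) : Prop :=
  ∀ A B : SLt F, pr B = φ (pr A) → trS B ^ 2 = σ (trS A ^ 2)

lemma trS_sq_of_pr {A B : SLt F} (h : pr A = pr B) : trS A ^ 2 = trS B ^ 2 := by
  rcases pr_eq_iff.1 h with h1 | h1
  · rw [Subtype.ext h1]
  · simp only [trS, h1]
    simp
    ring

lemma trS_eq_trace (A : SLt F) : trS A = Matrix.trace A.1 := by
  rw [Matrix.trace_fin_two]
  rfl

lemma trS_conj (G A : SLt F) : trS (G * A * G⁻¹) = trS A := by
  rw [trS_eq_trace, trS_eq_trace]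
  have e : (G * A * G⁻¹).1 = G.1 * A.1 * (G⁻¹).1 := rfl
  rw [e, Matrix.trace_mul_comm, ← mul_assoc]
  have e2 : (G⁻¹).1 * G.1 = 1 := by
    have : (G⁻¹ * G).1 = 1 := by
      rw [inv_mul_cancel]
      rfl
    exact this
  rw [e2, one_mul]

lemma TR_conj (g : PS F) : TR (MulAut.conj g) (RingEquiv.refl F) := by
  intro A B hB
  obtain ⟨G, rfl⟩ := pr_surj g
  rw [MulAut.conj_apply, ← map_inv, ← map_mul, ← map_mul] at hB
  rw [trS_sq_of_pr hB, trS_conj]
  rfl

lemma TR_dA (c : Fˣ) : TR (dA c) (RingEquiv.refl F) := by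
  intro A B hB
  rw [dA_pr] at hB
  rw [trS_sq_of_pr hB]
  simp [trS, dS]

lemma TR_fA (σ : F ≃+* F) : TR (fA σ) σ := by
  intro A B hB
  rw [fA_pr] at hB
  rw [trS_sq_of_pr hB]
  simp [trS, mapS_apply]

lemma TR_mul {φ ψ : MulAut (PS F)} {σ τ : F ≃+* F} (h1 : TR φ σ) (h2 : TR ψ τ) : TR (φ * ψ) (τ.trans σ) := by
  intro A B hB
  obtain ⟨C, hC⟩ := pr_surj (ψ (pr A))
  have e1 : pr B = φ (pr C) := by
    rw [hB, hC]
    rfl
  rw [h1 C B e1, h2 A C hC]
  rfl

/-- Every element of a finite field is a difference of two squares. -/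
lemma exists_diff_sq [Finite F] (x : F) : ∃ a b : F, x = a ^ 2 - b ^ 2 := by
  by_cases h2 : (2 : F) = 0
  · haveI : CharP F 2 := CharTwo.of_one_ne_zero_of_two_eq_zero one_ne_zero h2
    haveI := Fintype.ofFinite F
    obtain ⟨y, hy⟩ := FiniteField.isSquare_of_char_two (ringChar.eq F 2) x
    exact ⟨y, 0, by rw [hy]; ring⟩
  · refine ⟨(x + 1) / 2, (x - 1) / 2, ?_⟩
    field_simp
    ring

/-- Uniqueness of the field automorphism in the trace relation. -/
lemma TR_unique [Finite F] {φ : MulAut (PS F)} {σ τ : F ≃+* F} (h1 : TR φ σ) (h2 : TR φ τ) : σ = τ := by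
  have hsq : ∀ t : F, σ (t ^ 2) = τ (t ^ 2) := by
    intro t
    let A : SLt F := mkSL t (-1) 1 0 (by ring)
    obtain ⟨B, hB⟩ := pr_surj (φ (pr A))
    have e1 := h1 A B hB
    have e2 := h2 A B hB
    have e3 : trS A = t := by simp [trS, A]
    rw [e3] at e1 e2
    rw [← e1, ← e2]
  ext x
  obtain ⟨a, b, rfl⟩ := exists_diff_sq x
  rw [map_sub, map_sub, hsq, hsq]

end CfsgLib.PSA
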