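/-
Rigidity: an automorphism of `PSL₂(F)` fixing the transvections and preserving the torus is trivial.
-/
import Cfsg.Agent.Lib.PSLAut.Auts

set_option autoImplicit false

namespace CfsgLib.PSA

open Matrix

variable {F : Type*} [Field F]

lemma h_eq_of_sq {a b : Fˣ} (hab : (a : F) ^ 2 = (b : F) ^ 2) : h a = h b := by
  have h1 : h (a / b) = 1 := by
    apply h_eq_one_of_sq
    simp only [Units.val_div_eq_div_val, div_pow, hab]
    exact div_self (pow_ne_zero 2 b.ne_zero)
  have h2 : a = (a / b) * b := by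
    simp
  rw [h2, ← h_mul, h1, one_mul]

/-- A normaliser computation: conjugating a transvection into the transvections forces upper triangularity. -/
lemma norm_U {A : SLt F} {c t : F} (hc : c ≠ 0) (hA : pr A * u c = u t * pr A) : A.1 1 0 = 0 := by
  rw [u, u, ← map_mul, ← map_mul] at hA
  rcases pr_eq_iff.1 hA with h1 | h1
  · have h2 := congrFun (congrFun h1 1) 1
    have e1 : (A * uS c).1 1 1 = A.1 1 0 * c + A.1 1 1 := by
      rw [mul_11]
      simp [uS]
    have e2 : (uS t * A).1 1 1 = A.1 1 1 := by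
      rw [mul_11]
      simp [uS]
    rw [e1, e2] at h2
    have : A.1 1 0 * c = 0 := by linear_combination h2
    exact (mul_eq_zero.1 this).resolve_right hc
  · have h2 := congrFun (congrFun h1 1) 1
    have h3 := congrFun (congrFun h1 1) 0
    have e1 : (A * uS c).1 1 1 = A.1 1 0 * c + A.1 1 1 := by
      rw [mul_11]
      simp [uS]
    have e2 : (uS t * A).1 1 1 = A.1 1 1 := by
      rw [mul_11]
      simp [uS]
    have e3 : (A * uS c).1 1 0 = A.1 1 0 := by
      rw [mul_10]
      simp [uS]
    have e4 : (uS t * A).1 1 0 = A.1 1 0 := by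
      rw [mul_10]
      simp [uS]
    simp only [Matrix.neg_apply] at h2 h3
    rw [e1, e2] at h2
    rw [e3, e4] at h3
    by_cases h20 : (2 : F) = 0
    · have : A.1 1 0 * c = 0 := by linear_combination h2 - (A.1 1 1) * h20
      exact (mul_eq_zero.1 this).resolve_right hc
    · have : (2 : F) * A.1 1 0 = 0 := by linear_combination h3
      exact (mul_eq_zero.1 this).resolve_left h20

/-- Rigidity. -/
theorem rigid (χ : MulAut (PS F)) (hu : ∀ t : F, χ (u t) = u t) (hh : ∀ b : Fˣ, ∃ b' : Fˣ, χ (h b) = h b') (ζ : Fˣ) (hζ : (ζ : F) ^ 2 ≠ 1) : χ = 1 := by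
  -- the torus is fixed
  have hfixH : ∀ b : Fˣ, χ (h b) = h b := by
    intro b
    obtain ⟨b', hb'⟩ := hh b
    have h1 := congrArg χ (h_u b 1)
    rw [map_mul, map_mul, map_inv, hb', hu, hu, h_u] at h1
    have h2 := u_inj h1
    rw [mul_one, mul_one] at h2
    rw [hb']
    exact h_eq_of_sq h2
  -- the lift of the image of the Weyl element
  obtain ⟨W, hW⟩ := pr_surj (χ w)
  have hz : W.1 1 0 ≠ 0 := by
    intro hz
    obtain ⟨a, t, hA, -⟩ := upper_eq hz
    have h1 : χ (u t * h a) = χ w := by
      rw [map_mul, hu, hfixH, ← hW, hA, map_mul]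
      rfl
    have h2 := χ.injective h1
    have h3 : pr (uS t * hS a) = pr (wS (F := F)) := h2
    rcases pr_eq_iff.1 h3 with h4 | h4
    · have h5 := congrFun (congrFun h4 1) 0
      have e1 : (uS t * hS a).1 1 0 = 0 := by
        rw [mul_10]
        simp [uS, hS]
      rw [e1] at h5
      have : (wS (F := F)).1 1 0 = -1 := rfl
      rw [this] at h5
      exact one_ne_zero (neg_eq_zero.1 h5.symm)
    · have h5 := congrFun (congrFun h4 1) 0
      have e1 : (uS t * hS a).1 1 0 = 0 := by
        rw [mul_10]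
        simp [uS, hS]
      rw [e1] at h5
      have : (wS (F := F)).1 1 0 = -1 := rfl
      rw [Matrix.neg_apply, this, neg_neg] at h5
      exact one_ne_zero h5.symm
  -- the relation with the torus
  have hrel : w * h ζ = h ζ⁻¹ * w := by
    rw [w, h, h, ← map_mul, ← map_mul]
    congr 1
    apply ext4 <;> simp [hS, wS, mul_00, mul_01, mul_10, mul_11]
  have hrel2 := congrArg χ hrel
  rw [map_mul, map_mul, hfixH, hfixH, ← hW, h, h, ← map_mul, ← map_mul] at hrel2
  have hcases : (W * hS ζ).1 = (hS ζ⁻¹ * W).1 := by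
    rcases pr_eq_iff.1 hrel2 with h1 | h1
    · exact h1
    · have h3 := congrFun (congrFun h1 1) 0
      have e1 : (W * hS ζ).1 1 0 = W.1 1 0 * ζ := by
        rw [mul_10]
        simp [hS]
      have e2 : (hS ζ⁻¹ * W).1 1 0 = ζ * W.1 1 0 := by
        rw [mul_10]
        simp [hS]
      rw [Matrix.neg_apply, e1, e2] at h3
      have h20 : (2 : F) * (W.1 1 0 * ζ) = 0 := by linear_combination h3
      have h21 : (2 : F) = 0 := (mul_eq_zero.1 h20).resolve_right (mul_ne_zero hz ζ.ne_zero)
      rw [h1]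
      ext i j
      have : ∀ x : F, - x = x := by
        intro x
        linear_combination (-x) * h21
      simp only [Matrix.neg_apply, this]
  have hne : (ζ : F) - ((ζ⁻¹ : Fˣ) : F) ≠ 0 := by
    intro h0
    apply hζ
    have h1 : (ζ : F) * ((ζ⁻¹ : Fˣ) : F) = 1 := by simp
    linear_combination (ζ : F) * h0 + h1
  have hW00 : W.1 0 0 = 0 := by
    have h3 := congrFun (congrFun hcases 0) 0
    have e1 : (W * hS ζ).1 0 0 = W.1 0 0 * ζ := by
      rw [mul_00]
      simp [hS]
    have e2 : (hS ζ⁻¹ * W).1 0 0 = ((ζ⁻¹ : Fˣ) : F) * W.1 0 0 := by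
      rw [mul_00]
      simp [hS]
    rw [e1, e2] at h3
    have : W.1 0 0 * ((ζ : F) - ((ζ⁻¹ : Fˣ) : F)) = 0 := by linear_combination h3
    exact (mul_eq_zero.1 this).resolve_right hne
  have hd := det_eq W
  rw [hW00, zero_mul, zero_sub] at hd
  have hy : W.1 0 1 ≠ 0 := by
    intro h0
    rw [h0, zero_mul, neg_zero] at hd
    exact zero_ne_one hd
  have hW11 : W.1 1 1 = 0 := by
    have h3 := congrFun (congrFun hcases 1) 1
    have e1 : (W * hS ζ).1 1 1 = W.1 1 1 * ((ζ⁻¹ : Fˣ) : F) := by
      rw [mul_11]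
      simp [hS]
    have e2 : (hS ζ⁻¹ * W).1 1 1 = ζ * W.1 1 1 := by
      rw [mul_11]
      simp [hS]
    rw [e1, e2] at h3
    have : W.1 1 1 * ((ζ : F) - ((ζ⁻¹ : Fˣ) : F)) = 0 := by linear_combination -h3
    exact (mul_eq_zero.1 this).resolve_right hne
  set y := W.1 0 1 with hydef
  set z := W.1 1 0 with hzdef
  -- the image of the lower transvections
  have hl : ∀ t : F, χ (l t) = l (- t * z / y) := by
    intro t
    rw [l_eq_w, map_mul, map_mul, map_inv, hu, ← hW, u, l, mul_inv_eq_iff_eq_mul, ← map_mul, ← map_mul]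
    congr 1
    apply ext4 <;> simp [uS, lS, mul_00, mul_01, mul_10, mul_11, hW00, hW11, ← hydef, ← hzdef]
    field_simp
  -- the relation of Bruhat
  have hb := congrArg χ (w_rel (F := F))
  rw [map_mul, map_mul, hu, hl, ← hW, u, l, ← map_mul, ← map_mul] at hb
  have hsq : z = - y ⁻¹ := by
    field_simp
    linear_combination -hd
  have hy2 : y ^ 2 = 1 := by
    have e1 : (uS (1 : F) * lS (- -1 * z / y) * uS 1).1 0 0 = 1 + z / y := by
      rw [mul_00, mul_00]
      simp [uS, lS]
    rcases pr_eq_iff.1 hb with h1 | h1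
    · have h3 := congrFun (congrFun h1 0) 0
      rw [e1, hW00] at h3
      rw [hsq] at h3
      field_simp at h3
      linear_combination -h3
    · have h3 := congrFun (congrFun h1 0) 0
      rw [Matrix.neg_apply, e1, hW00] at h3
      rw [hsq] at h3
      field_simp at h3
      linear_combination h3
  have hfixL : ∀ t : F, χ (l t) = l t := by
    intro t
    rw [hl]
    congr 1
    rw [hsq]
    field_simp
    linear_combination (-t) * hy2
  ext x
  exact eq_of_fix_ul (χ := χ.toMonoidHom) hu hfixL x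

end CfsgLib.PSA
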