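/-
The decomposition of automorphisms of `PSL₂(F)`.
-/
import Cfsg.Agent.Lib.PSLAut.Rigid
import Cfsg.Agent.S0243

set_option autoImplicit false

namespace CfsgLib.PSA

open Matrix

variable {F : Type*} [Field F]

lemma fA_symm_mul (σ : F ≃+* F) : fA σ.symm * fA σ = 1 := by
  ext x
  obtain ⟨A, rfl⟩ := pr_surj x
  show pr _ = pr _
  congr 1
  apply Subtype.ext
  ext i j
  simp [mapS_apply]

lemma fA_mul_symm (σ : F ≃+* F) : fA σ * fA σ.symm = 1 := by
  ext x
  obtain ⟨A, rfl⟩ := pr_surj x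
  show pr _ = pr _
  congr 1
  apply Subtype.ext
  ext i j
  simp [mapS_apply]

/-- A normal form when the torus and the transvections are preserved. -/
theorem to_field [Finite F] (ψ : MulAut (PS F)) (hu : ∀ t : F, ∃ t' : F, ψ (u t) = u t')
    (hh : ∀ b : Fˣ, ∃ b' : Fˣ, ψ (h b) = h b') (ζ : Fˣ) (hζ : (ζ : F) ^ 2 ≠ 1) :
    ∃ (c : Fˣ) (σ : F ≃+* F), ψ = dA c * fA σ := by
  choose f hf using hu
  have hadd : ∀ s t : F, f (s + t) = f s + f t := by
    intro s t
    apply u_inj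
    rw [← hf, ← u_add, ← u_add, map_mul, hf, hf]
  have hf0 : f 0 = 0 := by
    have := hadd 0 0
    rw [add_zero] at this
    linear_combination -this
  have hfne : ∀ t : F, f t = 0 → t = 0 := by
    intro t ht
    apply u_eq_one
    apply ψ.injective
    rw [hf, ht, u_zero, map_one]
  have hf1 : f 1 ≠ 0 := fun h0 => one_ne_zero (hfne 1 h0)
  set c : Fˣ := Units.mk0 (f 1) hf1 with hc
  have hcv : (c : F) = f 1 := rfl
  set g : F → F := fun t => ((c⁻¹ : Fˣ) : F) * f t with hg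
  have hcc : ((c⁻¹ : Fˣ) : F) * (c : F) = 1 := by simp
  have hg1 : g 1 = 1 := by
    simp only [hg]
    rw [← hcv]
    exact hcc
  have hgadd : ∀ s t : F, g (s + t) = g s + g t := by
    intro s t
    simp only [hg, hadd]
    ring
  have hg0 : g 0 = 0 := by
    simp [hg, hf0]
  have hgneg : ∀ t : F, g (- t) = - g t := by
    intro t
    have := hgadd t (-t)
    rw [add_neg_cancel, hg0] at this
    linear_combination -this
  -- torus relation
  have hrel : ∀ (b : Fˣ) (t : F), g ((b : F) ^ 2 * t) = g ((b : F) ^ 2) * g t := by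
    intro b t
    obtain ⟨b', hb'⟩ := hh b
    have key : ∀ t : F, f ((b : F) ^ 2 * t) = (b' : F) ^ 2 * f t := by
      intro t
      apply u_inj
      rw [← hf, ← h_u, map_mul, map_mul, map_inv, hb', hf, h_u]
    have e1 : g ((b : F) ^ 2) = (b' : F) ^ 2 := by
      have := key 1
      rw [mul_one] at this
      simp only [hg]
      rw [this, ← hcv]
      linear_combination ((b' : F) ^ 2) * hcc
    rw [e1]
    simp only [hg]
    rw [key]
    ring
  have hmul : ∀ x y : F, g (x * y) = g x * g y := by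
    intro x y
    obtain ⟨a, b, rfl⟩ := exists_diff_sq x
    have hsq : ∀ a t : F, g (a ^ 2 * t) = g (a ^ 2) * g t := by
      intro a t
      by_cases ha : a = 0
      · subst ha
        simp [hg0]
      · exact hrel (Units.mk0 a ha) t
    have e : (a ^ 2 - b ^ 2) * y = a ^ 2 * y + -(b ^ 2 * y) := by ring
    have e2 : a ^ 2 - b ^ 2 = a ^ 2 + -(b ^ 2) := by ring
    rw [e, hgadd, hgneg, hsq, hsq, e2, hgadd, hgneg]
    ring
  have hginj : Function.Injective g := by
    intro s t hst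
    have h1 : f (s + - t) = 0 := by
      have h2 : g (s + - t) = 0 := by
        rw [hgadd, hgneg, hst, add_neg_cancel]
      simp only [hg] at h2
      exact (mul_eq_zero.1 h2).resolve_left (Units.ne_zero _)
    have h3 := hfne _ h1
    linear_combination h3
  have hgbij : Function.Bijective g := ⟨hginj, Finite.surjective_of_injective hginj⟩
  let gr : F →+* F :=
    { toFun := g
      map_one' := hg1
      map_mul' := hmul
      map_zero' := hg0
      map_add' := hgadd }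
  let σ : F ≃+* F := RingEquiv.ofBijective gr hgbij
  have hσ : ∀ t, σ t = g t := fun t => rfl
  refine ⟨c, σ, ?_⟩
  -- the normalised automorphism
  set χ : MulAut (PS F) := fA σ.symm * dA c⁻¹ * ψ with hχ
  have hχu : ∀ t : F, χ (u t) = u t := by
    intro t
    show fA σ.symm (dA c⁻¹ (ψ (u t))) = u t
    rw [hf, dA_u, fA_u]
    congr 1
    have : ((c⁻¹ : Fˣ) : F) * f t = σ t := rfl
    rw [this]
    simp
  have hχh : ∀ b : Fˣ, ∃ b' : Fˣ, χ (h b) = h b' := by
    intro b
    obtain ⟨b', hb'⟩ := hh b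
    refine ⟨Units.map (σ.symm : F →* F) b', ?_⟩
    show fA σ.symm (dA c⁻¹ (ψ (h b))) = _
    rw [hb', dA_h, fA_h]
  have hχ1 : χ = 1 := rigid χ hχu hχh ζ hζ
  have e1 : dA c * dA c⁻¹ = 1 := by
    rw [← dA_mul, mul_inv_cancel, dA_one]
  calc ψ = dA c * fA σ * χ := by
        rw [hχ]
        calc ψ = 1 * ψ := by rw [one_mul]
          _ = (dA c * (fA σ * fA σ.symm) * dA c⁻¹) * ψ := by
            rw [fA_mul_symm, mul_one, e1]
          _ = _ := by
            simp only [mul_assoc]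
    _ = dA c * fA σ := by rw [hχ1, mul_one]

section finite

variable [Fintype F] {p f : ℕ} [hp : Fact p.Prime]

omit [Fintype F] in
lemma u_pow (t : F) (n : ℕ) : u t ^ n = u ((n : F) * t) := by
  induction n with
  | zero => simp [u_zero]
  | succ n ih =>
    rw [pow_succ, ih, u_add]
    congr 1
    push_cast
    ring

/-- The transvection subgroup. -/
def uHom : Multiplicative F →* PS F where
  toFun t := u (Multiplicative.toAdd t)
  map_one' := u_zero
  map_mul' a b := (u_add _ _).symm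

/-- The transvection subgroup as a range. -/
def UU (F : Type*) [Field F] : Subgroup (PS F) := (uHom (F := F)).range

omit [Fintype F] in
lemma mem_UU {x : PS F} : x ∈ UU F ↔ ∃ t : F, x = u t := by
  constructor
  · rintro ⟨t, rfl⟩
    exact ⟨Multiplicative.toAdd t, rfl⟩
  · rintro ⟨t, rfl⟩
    exact ⟨Multiplicative.ofAdd t, rfl⟩

lemma card_UU : Nat.card (UU F) = Fintype.card F := by
  have hinj : Function.Injective (uHom (F := F)) := by
    intro a b hab
    exact Multiplicative.toAdd.injective (u_inj (F := F) hab)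
  have e : Nat.card (UU F) = Nat.card (Multiplicative F) :=
    Nat.card_congr (MonoidHom.ofInjective hinj).symm.toEquiv
  rw [e, Nat.card_congr (Multiplicative.toAdd (α := F)), Nat.card_eq_fintype_card]

lemma card_PS (hF : Fintype.card F = p ^ f) (hf : 1 ≤ f) (h4 : 4 ≤ p ^ f) :
    Nat.gcd 2 (p ^ f - 1) * Nat.card (PS F) = p ^ f * (p ^ f * p ^ f - 1) := by
  have h := Cfsg.Agent.S0243.result hF 2 (le_refl 2)
  simp only [Fin.prod_univ_two, Fin.val_zero, Fin.val_one, pow_zero, pow_one] at h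
  set q := p ^ f with hq
  have hpos : 0 < q - 1 := by omega
  apply Nat.eq_of_mul_eq_mul_left hpos
  have e1 : q ^ 2 - q = q * (q - 1) := by
    rw [Nat.mul_sub, mul_one, pow_two]
  rw [e1] at h
  have e2 : q ^ 2 = q * q := pow_two q
  rw [e2] at h
  calc (q - 1) * (Nat.gcd 2 (q - 1) * Nat.card (PS F)) = Nat.gcd 2 (q - 1) * ((q - 1) * Nat.card (PS F)) := by ring
    _ = (q * q - 1) * (q * (q - 1)) := h
    _ = _ := by ring

/-- Sylow conjugacy of the transvection subgroup. -/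
theorem exists_U (hF : Fintype.card F = p ^ f) (hf : 1 ≤ f) (h4 : 4 ≤ p ^ f) (φ : MulAut (PS F)) :
    ∃ g : PS F, ∀ t : F, ∃ t' : F, (MulAut.conj g * φ) (u t) = u t' := by
  classical
  haveI : Finite (PS F) := inferInstance
  have hcUU : Nat.card (UU F) = p ^ f := by rw [card_UU, hF]
  have hPU : IsPGroup p (UU F) := IsPGroup.of_card hcUU
  set V : Subgroup (PS F) := (UU F).map φ.toMonoidHom with hV
  have hcV : Nat.card V = p ^ f := by
    rw [hV, Subgroup.card_map_of_injective φ.injective, hcUU]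
  have hPV : IsPGroup p V := IsPGroup.of_card hcV
  obtain ⟨P, hP⟩ := hPV.exists_le_sylow
  obtain ⟨Q, hQ⟩ := hPU.exists_le_sylow
  obtain ⟨a, ha⟩ := MulAction.exists_smul_eq (PS F) P Q
  have hbound : ¬ p ^ (f + 1) ∣ Nat.card (PS F) := by
    intro hd
    have h1 := card_PS (F := F) hF hf h4
    have h2 : p ^ (f + 1) ∣ p ^ f * (p ^ f * p ^ f - 1) := by
      rw [← h1]
      exact hd.trans (Dvd.intro_left _ rfl)
    rw [pow_succ] at h2
    have h3 : p ∣ p ^ f * p ^ f - 1 := (Nat.mul_dvd_mul_iff_left (pow_pos hp.out.pos f)).1 h2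
    have h5 : p ∣ p ^ f * p ^ f := by
      apply Dvd.dvd.mul_left
      exact dvd_pow_self p (by omega)
    have h6 : 1 ≤ p ^ f * p ^ f := Nat.mul_pos (by omega) (by omega)
    have h7 : p ∣ 1 := by
      have := (Nat.dvd_sub h5 h3)
      rwa [Nat.sub_sub_self h6] at this
    exact hp.out.one_lt.ne' (Nat.dvd_one.1 h7)
  have hcQ : Nat.card (Q : Subgroup (PS F)) ≤ p ^ f := by
    obtain ⟨n, hn⟩ := (IsPGroup.iff_card).1 Q.isPGroup'
    have hd : Nat.card (Q : Subgroup (PS F)) ∣ Nat.card (PS F) := Subgroup.card_subgroup_dvd_card _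
    rw [hn] at hd ⊢
    have hn1 : n ≤ f := by
      by_contra hcon
      apply hbound
      exact (pow_dvd_pow p (by omega)).trans hd
    exact Nat.pow_le_pow_right hp.out.pos hn1
  have hQeq : UU F = (Q : Subgroup (PS F)) := by
    apply Subgroup.eq_of_le_of_card_ge hQ
    rw [hcUU]
    exact hcQ
  refine ⟨a, fun t => ?_⟩
  have hmem : (MulAut.conj a * φ) (u t) ∈ (Q : Subgroup (PS F)) := by
    rw [← ha, Sylow.coe_subgroup_smul]
    refine ⟨φ (u t), hP ⟨u t, ?_, rfl⟩, rfl⟩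
    exact mem_UU.2 ⟨t, rfl⟩
  rw [← hQeq] at hmem
  obtain ⟨t', ht'⟩ := mem_UU.1 hmem
  exact ⟨t', ht'⟩

/-- Removing the unipotent part from the image of a generator of the torus. -/
theorem exists_H (hF : Fintype.card F = p ^ f) (hf : 1 ≤ f) (h4 : 4 ≤ p ^ f) [CharP F p]
    (ψ : MulAut (PS F)) (hU : ∀ t : F, ∃ t' : F, ψ (u t) = u t') (ζ : Fˣ) (hζ : orderOf ζ = p ^ f - 1) :
    ∃ (s : F) (a : Fˣ), (MulAut.conj (u s) * ψ) (h ζ) = h a := by
  obtain ⟨A, hA⟩ := pr_surj (ψ (h ζ))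
  obtain ⟨c, hc⟩ := hU 1
  obtain ⟨t', ht'⟩ := hU ((ζ : F) ^ 2 * 1)
  have hc0 : c ≠ 0 := by
    rintro rfl
    rw [u_zero] at hc
    have := u_eq_one ((map_eq_one_iff _ ψ.injective).1 hc)
    exact one_ne_zero this
  have hrel : pr A * u c = u t' * pr A := by
    have h1 := congrArg ψ (h_u ζ 1)
    rw [map_mul, map_mul, map_inv, hc, ht', ← hA, mul_inv_eq_iff_eq_mul] at h1
    exact h1
  have h10 := norm_U hc0 hrel
  obtain ⟨a, t, hAe, -⟩ := upper_eq h10
  have hg : ψ (h ζ) = u t * h a := by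
    rw [← hA, hAe, map_mul]
    rfl
  have ha2 : (a : F) ^ 2 ≠ 1 := by
    intro ha
    have h1 : h a = 1 := h_eq_one_of_sq ha
    rw [h1, mul_one] at hg
    have h2 : ψ (h ζ ^ p) = 1 := by
      rw [map_pow, hg, u_pow, CharP.cast_eq_zero F p, zero_mul, u_zero]
    have h3 : h ζ ^ p = 1 := (map_eq_one_iff _ ψ.injective).1 h2
    have h4' : h (ζ ^ p) = 1 := by
      have : h (ζ ^ p) = hH (ζ ^ p) := rfl
      rw [this, map_pow]
      exact h3
    have h5 : ((ζ ^ p : Fˣ) : F) ^ 2 = ((1 : Fˣ) : F) ^ 2 := by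
      apply sq_of_h_eq
      rw [h4']
      exact (map_one hH).symm
    have h6 : ζ ^ (p * 2) = 1 := by
      apply Units.ext
      rw [pow_mul]
      simpa using h5
    have h7 : p ^ f - 1 ∣ p * 2 := by
      rw [← hζ]
      exact orderOf_dvd_of_pow_eq_one h6
    have hcop : Nat.Coprime (p ^ f - 1) p := by
      have h8 : Nat.Coprime (p ^ f - 1) (p ^ f) := by
        have hq : 1 ≤ p ^ f := by omega
        have : Nat.Coprime (p ^ f - 1) (p ^ f - 1 + 1) := by simp
        rwa [Nat.sub_add_cancel hq] at this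
      exact Nat.Coprime.coprime_dvd_right (dvd_pow_self p (by omega)) h8
    have h9 : p ^ f - 1 ∣ 2 := hcop.dvd_of_dvd_mul_left h7
    have := Nat.le_of_dvd (by norm_num) h9
    omega
  have hne : (a : F) ^ 2 - 1 ≠ 0 := sub_ne_zero.2 ha2
  refine ⟨t / ((a : F) ^ 2 - 1), a, ?_⟩
  show u _ * ψ (h ζ) * (u _)⁻¹ = h a
  rw [hg, u_neg]
  have e : h a * u (-(t / ((a : F) ^ 2 - 1))) = u ((a : F) ^ 2 * (-(t / ((a : F) ^ 2 - 1)))) * h a := by
    rw [← h_u, inv_mul_cancel_right]
  rw [mul_assoc, mul_assoc, e, ← mul_assoc, ← mul_assoc, u_add, u_add]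
  have e2 : t / ((a : F) ^ 2 - 1) + t + (a : F) ^ 2 * -(t / ((a : F) ^ 2 - 1)) = 0 := by
    field_simp
    ring
  rw [e2, u_zero, one_mul]

/-- The decomposition of automorphisms. -/
theorem aut_decomp (hF : Fintype.card F = p ^ f) (hf : 1 ≤ f) (h4 : 4 ≤ p ^ f) [CharP F p] (φ : MulAut (PS F)) :
    ∃ (g : PS F) (c : Fˣ) (σ : F ≃+* F), φ = MulAut.conj g * dA c * fA σ := by
  classical
  obtain ⟨g₁, h₁⟩ := exists_U hF hf h4 φ
  set ψ₁ := MulAut.conj g₁ * φ with hψ₁
  obtain ⟨ζ, hgen⟩ := IsCyclic.exists_generator (α := Fˣ)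
  have hζ : orderOf ζ = p ^ f - 1 := by
    rw [orderOf_eq_card_of_forall_mem_zpowers hgen, Nat.card_eq_fintype_card, Fintype.card_units, hF]
  obtain ⟨s, a, hsa⟩ := exists_H hF hf h4 ψ₁ h₁ ζ hζ
  set ψ₂ := MulAut.conj (u s) * ψ₁ with hψ₂
  have hU₂ : ∀ t : F, ∃ t' : F, ψ₂ (u t) = u t' := by
    intro t
    obtain ⟨t', ht'⟩ := h₁ t
    refine ⟨t', ?_⟩
    show u s * ψ₁ (u t) * (u s)⁻¹ = u t'
    rw [ht', u_neg, u_add, u_add, add_comm s t', add_neg_cancel_right]
  have hH₂ : ∀ b : Fˣ, ∃ b' : Fˣ, ψ₂ (h b) = h b' := by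
    intro b
    obtain ⟨k, hk⟩ := hgen b
    have hk' : ζ ^ k = b := hk
    refine ⟨a ^ k, ?_⟩
    rw [← hk']
    have e1 : h (ζ ^ k) = h ζ ^ k := map_zpow hH ζ k
    have e2 : h (a ^ k) = h a ^ k := map_zpow hH a k
    rw [e1, e2, map_zpow, hsa]
  have hζ2 : (ζ : F) ^ 2 ≠ 1 := by
    intro h0
    have h6 : ζ ^ 2 = 1 := by
      apply Units.ext
      simpa using h0
    have h7 : p ^ f - 1 ∣ 2 := by
      rw [← hζ]
      exact orderOf_dvd_of_pow_eq_one h6
    have := Nat.le_of_dvd (by norm_num) h7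
    omega
  obtain ⟨c, σ, hcσ⟩ := to_field ψ₂ hU₂ hH₂ ζ hζ2
  refine ⟨(u s * g₁)⁻¹, c, σ, ?_⟩
  rw [mul_assoc, ← hcσ, hψ₂, hψ₁, map_inv, map_mul]
  group

end finite

end CfsgLib.PSA
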