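/-
The structure of the outer automorphism group of `PSL₂(F)`.
-/
import Cfsg.Agent.Lib.PSLAut.Decomp
import Cfsg.Prelude.Def_KGroupFacts

set_option autoImplicit false

namespace CfsgLib.PSA

open Matrix

variable {F : Type*} [Field F]

/-- The homomorphism to the automorphisms of the field, given existence. -/
noncomputable def ThOf [Finite F] (hex : ∀ φ : MulAut (PS F), ∃ σ : F ≃+* F, TR φ σ) : MulAut (PS F) →* RingAut F where
  toFun φ := (hex φ).choose
  map_one' := by
    have h1 : TR (1 : MulAut (PS F)) (RingEquiv.refl F) := by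
      have := TR_conj (F := F) 1
      rwa [map_one] at this
    exact TR_unique (hex 1).choose_spec h1
  map_mul' a b := by
    exact TR_unique (hex (a * b)).choose_spec (TR_mul (hex a).choose_spec (hex b).choose_spec)

lemma ThOf_eq [Finite F] (hex : ∀ φ : MulAut (PS F), ∃ σ : F ≃+* F, TR φ σ) {φ : MulAut (PS F)} {σ : F ≃+* F} (h : TR φ σ) : ThOf hex φ = σ :=
  TR_unique (hex φ).choose_spec h

/-- The diagonal automorphisms as a homomorphism. -/
noncomputable def dAHom : Fˣ →* MulAut (PS F) where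
  toFun := dA
  map_one' := dA_one
  map_mul' := dA_mul

/-- Diagonal automorphisms by squares are inner. -/
lemma dA_sq (a : Fˣ) : dA (a ^ 2) = MulAut.conj (h a) := by
  ext x
  obtain ⟨A, rfl⟩ := pr_surj x
  show pr (dS (a ^ 2) A) = h a * pr A * (h a)⁻¹
  rw [eq_comm, mul_inv_eq_iff_eq_mul, h, ← map_mul, ← map_mul]
  congr 1
  apply ext4 <;> simp [dS, hS, mul_00, mul_01, mul_10, mul_11] <;> field_simp

/-- Inner diagonal automorphisms come from squares. -/
lemma sq_of_inner {c : Fˣ} {g : PS F} (hg : MulAut.conj g = dA c) : ∃ a : Fˣ, a ^ 2 = c := by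
  have h1 := DFunLike.congr_fun hg (u 1)
  rw [MulAut.conj_apply, dA_u, mul_one, mul_inv_eq_iff_eq_mul] at h1
  obtain ⟨A, rfl⟩ := pr_surj g
  have h10 := norm_U (one_ne_zero) h1
  obtain ⟨a, t, hA, -⟩ := upper_eq h10
  refine ⟨a, ?_⟩
  have e : pr A = u t * h a := by
    rw [hA, map_mul]
    rfl
  rw [e] at h1
  have h3 : h a * u (1 : F) * (h a)⁻¹ = u (c : F) := by
    calc h a * u (1 : F) * (h a)⁻¹ = (u t)⁻¹ * (u t * h a * u 1) * (h a)⁻¹ := by group
      _ = (u t)⁻¹ * (u (c : F) * (u t * h a)) * (h a)⁻¹ := by rw [h1]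
      _ = (u t)⁻¹ * u (c : F) * u t := by group
      _ = u (c : F) := by
        rw [u_neg, u_add, u_add]
        congr 1
        ring
  rw [h_u, mul_one] at h3
  have := u_inj h3
  apply Units.ext
  simpa using this

section finite

variable [Fintype F] {p f : ℕ} [hp : Fact p.Prime]

/-- Existence of the field part. -/
lemma exists_TR (hF : Fintype.card F = p ^ f) (hf : 1 ≤ f) (h4 : 4 ≤ p ^ f) [CharP F p] (φ : MulAut (PS F)) :
    ∃ σ : F ≃+* F, TR φ σ := by
  obtain ⟨g, c, σ, rfl⟩ := aut_decomp hF hf h4 φ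
  exact ⟨_, TR_mul (TR_mul (TR_conj g) (TR_dA c)) (TR_fA σ)⟩

/-- The Galois group of a finite field as a multiplicative cyclic group. -/
lemma exists_gal_equiv (hF : Fintype.card F = p ^ f) (hf : 1 ≤ f) [CharP F p] : ∃ e : RingAut F ≃* Multiplicative (ZMod f), True := by
  classical
  haveI : Algebra (ZMod p) F := ZMod.algebra F p
  let ι : (F ≃ₐ[ZMod p] F) →* RingAut F :=
    { toFun := fun σ => σ.toRingEquiv
      map_one' := rfl
      map_mul' := fun _ _ => rfl }
  have hsurj : Function.Surjective ι := by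
    intro σ
    refine ⟨AlgEquiv.ofRingEquiv (f := σ) (fun r => ?_), ?_⟩
    · have e : (σ : F →+* F).comp (algebraMap (ZMod p) F) = algebraMap (ZMod p) F := Subsingleton.elim _ _
      exact congrArg (fun z : ZMod p →+* F => z r) e
    · ext x
      rfl
  have hcyc : IsCyclic (RingAut F) := isCyclic_of_surjective ι hsurj
  have hinj : Function.Injective ι := by
    intro a b hab
    ext x
    exact RingEquiv.congr_fun hab x
  have hcard : Nat.card (RingAut F) = f := by
    rw [← Nat.card_congr (Equiv.ofBijective ι ⟨hinj, hsurj⟩)]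
    haveI : FiniteDimensional (ZMod p) F := inferInstance
    rw [IsGalois.card_aut_eq_finrank]
    have h1 := Module.card_eq_pow_finrank (K := ZMod p) (V := F)
    rw [hF, ZMod.card] at h1
    exact (Nat.pow_right_injective (Fact.out : p.Prime).two_le h1).symm
  have e := zmodCyclicMulEquiv hcyc
  rw [hcard] at e
  exact ⟨e.symm, trivial⟩

/-- The main structure theorem. -/
theorem out_structure (hf : 1 ≤ f) (hF : Fintype.card F = p ^ f) (h4 : 4 ≤ p ^ f) :
    ∃ φ : Cfsg.Out (PS F) →* Multiplicative (ZMod f), Function.Surjective φ ∧ IsCyclic φ.ker ∧ Nat.card φ.ker = Nat.gcd 2 (p ^ f - 1) := by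
  classical
  -- the characteristic
  haveI : CharP F p := by
    obtain ⟨r, hr⟩ := CharP.exists F
    obtain ⟨n, hr1, hr2⟩ := FiniteField.card F r
    rw [hF] at hr2
    have h1 : p ∣ r ^ (n : ℕ) := by
      rw [← hr2]
      exact dvd_pow_self p (by omega)
    have h2 : p = r := (Nat.prime_dvd_prime_iff_eq hp.out hr1).1 (hp.out.dvd_of_dvd_pow h1)
    rw [h2]
    exact hr
  have hex := exists_TR (F := F) hF hf h4
  set Th := ThOf hex with hTh
  have hInn : ∀ x ∈ Cfsg.Inn (PS F), x ∈ Th.ker := by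
    rintro _ ⟨g, rfl⟩
    rw [MonoidHom.mem_ker]
    exact ThOf_eq hex (TR_conj g)
  let Thb : Cfsg.Out (PS F) →* RingAut F := QuotientGroup.lift _ Th hInn
  obtain ⟨e, -⟩ := exists_gal_equiv (F := F) hF hf
  refine ⟨e.toMonoidHom.comp Thb, ?_, ?_⟩
  · intro z
    refine ⟨QuotientGroup.mk (fA (e.symm z)), ?_⟩
    show e (Th (fA (e.symm z))) = z
    rw [hTh, ThOf_eq hex (TR_fA _)]
    simp
  -- the diagonal automorphisms
  let Δ : Fˣ →* Cfsg.Out (PS F) := (QuotientGroup.mk' _).comp dAHom
  have hkerE : (e.toMonoidHom.comp Thb).ker = Δ.range := by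
    ext x
    obtain ⟨ψ, rfl⟩ := QuotientGroup.mk_surjective x
    rw [MonoidHom.mem_ker, MonoidHom.mem_range]
    have e0 : (e.toMonoidHom.comp Thb) (QuotientGroup.mk ψ) = e (Th ψ) := rfl
    rw [e0, map_eq_one_iff _ e.injective]
    constructor
    · intro hψ
      obtain ⟨g, c, σ, rfl⟩ := aut_decomp hF hf h4 ψ
      have h1 : Th (MulAut.conj g * dA c * fA σ) = σ := by
        rw [map_mul, map_mul]
        have a1 : Th (MulAut.conj g) = 1 := ThOf_eq hex (TR_conj g)
        have a2 : Th (dA c) = 1 := ThOf_eq hex (TR_dA c)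
        have a3 : Th (fA σ) = σ := ThOf_eq hex (TR_fA σ)
        rw [a1, a2, a3, one_mul, one_mul]
      rw [h1] at hψ
      have hf1 : fA σ = 1 := by
        rw [show σ = RingEquiv.refl F from hψ]
        ext x
        obtain ⟨A, rfl⟩ := pr_surj x
        show pr _ = pr _
        congr 1
      refine ⟨c, ?_⟩
      rw [hf1, mul_one]
      show QuotientGroup.mk (dA c) = QuotientGroup.mk (MulAut.conj g * dA c)
      rw [QuotientGroup.eq]
      have := (Cfsg.innNormal (PS F)).conj_mem (MulAut.conj g) ⟨g, rfl⟩ (dA c)⁻¹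
      convert this using 1
      group
    · rintro ⟨c, hc⟩
      have h1 : (Thb (Δ c)) = 1 := ThOf_eq hex (TR_dA c)
      rw [hc] at h1
      exact h1
  rw [hkerE]
  refine ⟨isCyclic_of_surjective Δ.rangeRestrict Δ.rangeRestrict_surjective, ?_⟩
  -- the kernel of Δ
  have hkerD : Δ.ker = (powMonoidHom 2 : Fˣ →* Fˣ).range := by
    ext c
    rw [MonoidHom.mem_ker, MonoidHom.mem_range]
    constructor
    · intro hc
      have h1 : dA c ∈ Cfsg.Inn (PS F) := (QuotientGroup.eq_one_iff _).1 hc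
      obtain ⟨g, hg⟩ := h1
      obtain ⟨a, ha⟩ := sq_of_inner hg
      exact ⟨a, ha⟩
    · rintro ⟨a, rfl⟩
      have e1 : (powMonoidHom 2 : Fˣ →* Fˣ) a = a ^ 2 := rfl
      rw [e1]
      have h2 : dA (a ^ 2) ∈ Cfsg.Inn (PS F) := by
        rw [dA_sq]
        exact ⟨h a, rfl⟩
      exact (QuotientGroup.eq_one_iff (dA (a ^ 2))).2 h2
  rw [← Subgroup.index_ker, hkerD, IsCyclic.index_powMonoidHom_range, Nat.card_eq_fintype_card, Fintype.card_units, hF, Nat.gcd_comm]

end finite

end CfsgLib.PSA
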